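import Cfsg.Agent.Orth.Std
import Cfsg.Agent.Symp.Basic

/-!
In characteristic two the odd dimensional orthogonal group is the symplectic group.
-/

set_option autoImplicit false

namespace Cfsg.Agent.Orth

open QuadraticMap Module Matrix

variable {F : Type*} [Field F] {m : ℕ}

/-- The projection killing the radical. -/
def projL (F : Type*) [Field F] (m : ℕ) :
    ((Fin m → F) × (Fin m → F) × F) →ₗ[F] (Fin m ⊕ Fin m → F) where
  toFun v := Sum.elim v.1 v.2.1
  map_add' x y := by ext (i | i) <;> rfl
  map_smul' c x := by ext (i | i) <;> rfl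

/-- A section of `projL`. -/
def secL (F : Type*) [Field F] (m : ℕ) :
    (Fin m ⊕ Fin m → F) →ₗ[F] ((Fin m → F) × (Fin m → F) × F) where
  toFun v := (fun i => v (.inl i), fun i => v (.inr i), 0)
  map_add' x y := Prod.ext rfl (Prod.ext rfl (by simp))
  map_smul' c x := Prod.ext rfl (Prod.ext rfl (by simp))

lemma projL_secL (v : Fin m ⊕ Fin m → F) : projL F m (secL F m v) = v := by
  ext (i | i) <;> rfl

lemma secL_projL (v : (Fin m → F) × (Fin m → F) × F) :
    v = secL F m (projL F m v) + v.2.2 • (0, 0, 1) :=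
  Prod.ext (by ext i; simp [secL, projL]) (Prod.ext (by ext i; simp [secL, projL])
    (by simp [secL]))

lemma projL_rad : projL F m (0, 0, 1) = 0 := by
  ext (i | i) <;> rfl

theorem nonempty_OG_equiv_symplectic [Fintype F] [CharP F 2] :
    Nonempty (OG (hsum m (QuadraticMap.sq : QuadraticForm F F)) ≃* symplecticGroup (Fin m) F) := by
  have h2 : (2 : F) = 0 := CharTwo.two_eq_zero
  have hp : ∀ v w, polar (hsum m (QuadraticMap.sq : QuadraticForm F F)) v w =
      Symp.sform (Fin m) F (projL F m v) (projL F m w) := fun v w => by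
    rw [polar_hsum, polar_sq, h2, zero_mul, zero_mul, add_zero, Symp.sform_apply]
    exact Finset.sum_congr rfl fun i _ => by rw [CharTwo.sub_eq_add, add_comm]; rfl
  have hr : ∀ g : OG (hsum m (QuadraticMap.sq : QuadraticForm F F)),
      projL F m (g.1 (0, 0, 1)) = 0 := fun g => by
    by_contra h
    obtain ⟨z, hz⟩ := Symp.exists_sform_ne_zero' h
    rw [← projL_secL z, ← hp, OG.polar_left, hp, projL_rad] at hz
    simp at hz
  have hs : ∀ (g : OG (hsum m (QuadraticMap.sq : QuadraticForm F F))) v,
      projL F m (g.1 (secL F m (projL F m v))) = projL F m (g.1 v) := fun g v => by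
    conv_rhs => rw [secL_projL v, map_add, map_smul, map_add, map_smul, hr, smul_zero, add_zero]
  let ψ : OG (hsum m (QuadraticMap.sq : QuadraticForm F F)) →* symplecticGroup (Fin m) F :=
    MonoidHom.mk' (fun g => ⟨LinearMap.toMatrix' ((projL F m).comp (g.1.toLinearMap.comp (secL F m))),
      (Symp.mem_iff_sform _).2 fun u v => by
        simp only [LinearMap.toMatrix'_mulVec, LinearMap.comp_apply, LinearEquiv.coe_coe]
        rw [← hp, OG.map_polar, hp, projL_secL, projL_secL]⟩) fun g h => Symp.ext_smul fun v => by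
      rw [mul_smul]
      simp only [Symp.smul_def, LinearMap.toMatrix'_mulVec, LinearMap.comp_apply,
        LinearEquiv.coe_coe, hs, OG.mul_apply]
  have hψ : ∀ g v, ψ g • projL F m v = projL F m (g.1 v) := fun g v => by
    rw [← hs]
    exact LinearMap.toMatrix'_mulVec _ _
  refine ⟨MulEquiv.ofBijective ψ ⟨(injective_iff_map_eq_one ψ).2 fun g hg => OG.ext fun v => ?_,
    MonoidHom.range_eq_top.1 (Symp.eq_top_of_tv_mem _ fun a c => ?_)⟩⟩
  · have h1 := hψ g v
    rw [hg, one_smul] at h1
    have h3 := OG.map_Q g v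
    rw [secL_projL (g.1 v), ← h1] at h3
    conv_rhs at h3 => rw [secL_projL v]
    have h4 : (g.1 v).2.2 = v.2.2 := by
      simp only [hsum_apply, secL] at h3
      simp at h3
      rwa [← _root_.sq, ← _root_.sq, CharTwo.sq_inj] at h3
    rw [OG.one_apply, secL_projL (g.1 v), ← h1, h4, ← secL_projL]
  · by_cases hc : c = 0
    · rw [hc, Symp.tv_zero_right]; exact one_mem _
    obtain ⟨d, hd⟩ := FiniteField.isSquare_of_char_two (ringChar.eq F 2)
      (c⁻¹ - hsum m (QuadraticMap.sq : QuadraticForm F F) (secL F m a))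
    have h1 : projL F m (secL F m a + d • (0, 0, 1)) = a := by
      rw [map_add, map_smul, projL_rad, smul_zero, add_zero, projL_secL]
    have h3 : hsum m (QuadraticMap.sq : QuadraticForm F F) (secL F m a + d • (0, 0, 1)) = c⁻¹ := by
      rw [Q_add, Q_smul, hp, map_smul, projL_rad, ← hd]
      simp [hsum_apply]
    refine ⟨refl _ (secL F m a + d • (0, 0, 1)), Symp.ext_smul fun v => ?_⟩
    conv_lhs => rw [← projL_secL v, hψ, refl_apply, h3, hp, map_sub, map_smul, h1, projL_secL]
    rw [Symp.tv_smul, Symp.sform_swap a v, div_inv_eq_mul]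
    module

end Cfsg.Agent.Orth
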